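import Mathlib
import Cfsg.Agent.Lib.Helper73.HA.Defs

/-!
Project HA (helper73), package BRIDGE (helper54): Hall subgroups of the group `↥A` and Hall
subgroups of the subgroup `A`.
-/

set_option autoImplicit false

namespace Cfsg.Agent.Lib.Helper54.HA

universe u

theorem lemBridge : Cfsg.Agent.Lib.Helper73.HA.LemBridge.{u} := by
  intro G _ π A M
  have hcard : Nat.card (M.map A.subtype) = Nat.card M :=
    Subgroup.card_map_of_injective A.subtype_injective
  have hsub : (M.map A.subtype).subgroupOf A = M := by
    ext x
    simp [Subgroup.mem_subgroupOf]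
  have hidx : (M.map A.subtype).relIndex A = M.index := by
    unfold Subgroup.relIndex
    rw [hsub]
  unfold Cfsg.IsPiHall Cfsg.IsPiHallOf
  rw [hcard, hidx]
  exact ⟨fun h => ⟨Subgroup.map_subtype_le M, h⟩, fun h => h.2⟩

end Cfsg.Agent.Lib.Helper54.HA
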