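import Mathlib
import Cfsg.Agent.Lib.Helper73.HA.Defs

/-!
Project HA (helper73), package CRIT (helper54): a `π`-overgroup with an odd element of a Hall
subgroup of `Alt(Ω)` is a Hall subgroup of `Sym(Ω)` meeting `Alt(Ω)` in it.
-/

set_option autoImplicit false

namespace Cfsg.Agent.Lib.Helper54.HA

open Equiv

universe u

theorem lemCrit : Cfsg.Agent.Lib.Helper73.HA.LemCrit.{u} := by
  intro Ω _ _ π K M hK hKM hM hMA
  obtain ⟨hKA, hKπ, hKidx⟩ := hK
  -- `Ω` is nontrivial
  have : Nontrivial Ω := by
    by_contra hnt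
    rw [not_nontrivial_iff_subsingleton] at hnt
    apply hMA
    intro g _
    have : g = 1 := Subsingleton.elim _ _
    rw [this]
    exact Subgroup.one_mem _
  have hAidx : (alternatingGroup Ω).index = 2 := alternatingGroup.index_eq_two
  -- `M ⊓ A = K`
  have hle : K ≤ M ⊓ alternatingGroup Ω := le_inf hKM hKA
  have hmul := Subgroup.relIndex_mul_relIndex K (M ⊓ alternatingGroup Ω) (alternatingGroup Ω)
    hle inf_le_right
  have hone : K.relIndex (M ⊓ alternatingGroup Ω) = 1 := by
    by_contra hne
    obtain ⟨p, hp, hdvd⟩ := Nat.exists_prime_and_dvd hne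
    have h1 : p ∣ Nat.card M :=
      (hdvd.trans (Subgroup.relIndex_dvd_card K (M ⊓ alternatingGroup Ω))).trans
        (Subgroup.card_dvd_of_le inf_le_left)
    have h2 : p ∣ K.relIndex (alternatingGroup Ω) := by
      rw [← hmul]
      exact Dvd.dvd.mul_right hdvd _
    exact hKidx p hp (hM p hp h1) h2
  have heq : M ⊓ alternatingGroup Ω = K :=
    le_antisymm (Subgroup.relIndex_eq_one.mp hone) hle
  refine ⟨⟨hM, fun p hp hpπ hdvd => hKidx p hp hpπ ?_⟩, heq⟩
  -- `|S : M| = |A : K|`
  have h3 : (alternatingGroup Ω).relIndex M = 2 := by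
    have hd : (alternatingGroup Ω).relIndex M ∣ 2 := by
      rw [← hAidx]
      exact Subgroup.relIndex_dvd_index_of_normal _ _
    have hn1 : (alternatingGroup Ω).relIndex M ≠ 1 := fun h => hMA (Subgroup.relIndex_eq_one.mp h)
    rcases (Nat.dvd_prime Nat.prime_two).mp hd with h | h
    · exact absurd h hn1
    · exact h
  have h4 : K.relIndex M = 2 := by
    rw [← heq, Subgroup.inf_relIndex_left]
    exact h3
  have h5 := Subgroup.relIndex_mul_index hKM
  have h6 := Subgroup.relIndex_mul_index hKA
  rw [h4] at h5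
  rw [hAidx] at h6
  have h7 : M.index = K.relIndex (alternatingGroup Ω) := by omega
  rw [← h7]
  exact hdvd

end Cfsg.Agent.Lib.Helper54.HA
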