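import Mathlib
import Cfsg.Agent.Lib.Helper73.HA.Defs
import Cfsg.Agent.Lib.Helper90.SylowCount

/-!
Project HA (helper73), package INTER (helper54): a Hall subgroup meets a normal subgroup in a
Hall subgroup of it.
-/

set_option autoImplicit false

namespace Cfsg.Agent.Lib.Helper54.HA

universe u

theorem lemInter : Cfsg.Agent.Lib.Helper73.HA.LemInter.{u} := by
  intro G _ _ π H N hN hH
  obtain ⟨h1, h2⟩ := hH
  refine ⟨fun p hp hdvd => h1 p hp ?_, fun p hp hpπ hdvd => h2 p hp hpπ ?_⟩
  · have hdiv : Nat.card (H.subgroupOf N) ∣ Nat.card H := by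
      have e : Nat.card (H.subgroupOf N) = Nat.card (H ⊓ N : Subgroup G) := by
        rw [← Subgroup.subgroupOf_map_subtype H N]
        exact (Subgroup.card_map_of_injective N.subtype_injective).symm
      rw [e]
      exact Subgroup.card_dvd_of_le inf_le_left
    exact hdvd.trans hdiv
  · have hle : H ≤ Subgroup.normalizer (N : Set G) := by
      rw [Subgroup.normalizer_eq_top]
      exact le_top
    have h3 : H.relIndex (H ⊔ N) = H.relIndex N :=
      Cfsg.Agent.Lib.Helper90.relIndex_sup_of_le_normalizer hle
    have h4 : H.relIndex N ∣ H.index := h3 ▸ Subgroup.relIndex_dvd_index_of_le le_sup_left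
    exact hdvd.trans h4

end Cfsg.Agent.Lib.Helper54.HA
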