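import Mathlib
import Cfsg.Agent.Lib.Helper73.HA.Defs

/-!
Project HA (helper73), package ODD (helper54): for `2 ∉ π` (or degree at most one) a Hall
subgroup of `Alt(Ω)` is a Hall subgroup of `Sym(Ω)`.
-/

set_option autoImplicit false

namespace Cfsg.Agent.Lib.Helper54.HA

open Equiv

universe u

theorem lemOdd : Cfsg.Agent.Lib.Helper73.HA.LemOdd.{u} := by
  intro Ω _ _ π K hK hcase
  obtain ⟨hKA, hKπ, hKidx⟩ := hK
  refine ⟨hKπ, fun p hp hpπ hdvd => ?_⟩
  have h6 := Subgroup.relIndex_mul_index hKA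
  rw [← h6] at hdvd
  rcases (Nat.Prime.dvd_mul hp).mp hdvd with h | h
  · exact hKidx p hp hpπ h
  · rcases subsingleton_or_nontrivial Ω with hs | hn
    · rw [alternatingGroup.index_eq_one] at h
      exact hp.one_lt.ne' (Nat.dvd_one.mp h)
    · rw [alternatingGroup.index_eq_two] at h
      have hp2 : p = 2 := (Nat.prime_dvd_prime_iff_eq hp Nat.prime_two).mp h
      rcases hcase with h2 | hcard
      · exact h2 (hp2 ▸ hpπ)
      · have : 1 < Fintype.card Ω := Fintype.one_lt_card
        omega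

end Cfsg.Agent.Lib.Helper54.HA
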