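import Mathlib
import Cfsg.Agent.Lib.Helper73.HA.Defs

/-!
Project HA (helper73), package SYL (helper54): Hall `π`-subgroups are conjugate when at most
one prime of `π` divides the group order (they are trivial or Sylow subgroups).
-/

set_option autoImplicit false

namespace Cfsg.Agent.Lib.Helper54.HA

universe u

/-- If no prime of `π` divides `|G|`, a `π`-subgroup is trivial. -/
theorem eq_bot_of_no_prime {G : Type u} [Group G] [Finite G] {π : Set ℕ} {H : Subgroup G}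
    (hH : ∀ p : ℕ, p.Prime → p ∣ Nat.card H → p ∈ π)
    (hno : ∀ p : ℕ, p.Prime → p ∈ π → ¬ p ∣ Nat.card G) : H = ⊥ := by
  rw [← Subgroup.card_eq_one]
  by_contra hne
  obtain ⟨p, hp, hdvd⟩ := Nat.exists_prime_and_dvd hne
  exact hno p hp (hH p hp hdvd) (hdvd.trans (Subgroup.card_subgroup_dvd_card H))

/-- If `p` is the only prime of `π` dividing `|G|`, a `π`-subgroup is a `p`-group. -/
theorem isPGroup_of_unique_prime {G : Type u} [Group G] [Finite G] {π : Set ℕ} {H : Subgroup G}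
    (hH : ∀ p : ℕ, p.Prime → p ∣ Nat.card H → p ∈ π) {p : ℕ}
    (huniq : ∀ r : ℕ, r.Prime → r ∈ π → r ∣ Nat.card G → r = p) : IsPGroup p H := by
  have hpos : Nat.card H ≠ 0 := Nat.card_pos.ne'
  have hcard := Nat.eq_prime_pow_of_unique_prime_dvd (p := p) hpos (fun {d} hd hdvd =>
    huniq d hd (hH d hd hdvd) (hdvd.trans (Subgroup.card_subgroup_dvd_card H)))
  exact IsPGroup.of_card hcard

theorem lemSylConj : Cfsg.Agent.Lib.Helper73.HA.LemSylConj.{u} := by
  intro G _ _ π H₁ H₂ h₁ h₂ huniq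
  by_cases hex : ∃ p : ℕ, p.Prime ∧ p ∈ π ∧ p ∣ Nat.card G
  · obtain ⟨p, hp, hpπ, hpG⟩ := hex
    have : Fact p.Prime := ⟨hp⟩
    have hu : ∀ r : ℕ, r.Prime → r ∈ π → r ∣ Nat.card G → r = p :=
      fun r hr hrπ hrG => huniq r p hr hp hrπ hpπ hrG hpG
    have hP₁ : IsPGroup p H₁ := isPGroup_of_unique_prime h₁.1 hu
    have hP₂ : IsPGroup p H₂ := isPGroup_of_unique_prime h₂.1 hu
    obtain ⟨g, hg⟩ := MulAction.exists_smul_eq G (hP₁.toSylow (h₁.2 p hp hpπ))
      (hP₂.toSylow (h₂.2 p hp hpπ))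
    refine ⟨g, ?_⟩
    have h3 := congrArg (fun P : Sylow p G => (P : Subgroup G)) hg
    simp only [Sylow.coe_subgroup_smul, IsPGroup.toSylow_coe] at h3
    rw [← h3]
    rfl
  · have hno : ∀ p : ℕ, p.Prime → p ∈ π → ¬ p ∣ Nat.card G :=
      fun p hp hpπ hpG => hex ⟨p, hp, hpπ, hpG⟩
    refine ⟨1, ?_⟩
    rw [eq_bot_of_no_prime h₁.1 hno, eq_bot_of_no_prime h₂.1 hno, Subgroup.map_bot]

end Cfsg.Agent.Lib.Helper54.HA
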